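import Cfsg.Agent.Lib.Schur.Asm
import Cfsg.Agent.Lib.CGT.Pres

/-! Relators in a central extension restricted to a subgroup with trivial Schur multiplier. -/

set_option autoImplicit false

namespace H39.ThM

open Cfsg H54

/-- all exponent sums vanish -/
noncomputable def zs (m : ℕ) (w : List ℕ) : Bool :=
  band (wfL m [w]) (allLt (fun i => Nat.beq (w.count (2 * i)) (w.count (2 * i + 1))) m)

theorem evW_comm {A : Type*} [CommGroup A] (y : ℕ → A) (m : ℕ) : ∀ w : List ℕ, (∀ l ∈ w, l < 2 * m) →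
    evW y w = ∏ i ∈ Finset.range m, (y i ^ w.count (2 * i) * (y i)⁻¹ ^ w.count (2 * i + 1))
  | [], _ => by simp
  | l :: w, h => by
    have hl : l < 2 * m := h l List.mem_cons_self
    rw [evW_cons, evW_comm y m w fun a ha => h a (List.mem_cons_of_mem _ ha)]
    have e : xl y l = ∏ i ∈ Finset.range m,
        (y i ^ (if l = 2 * i then 1 else 0) * (y i)⁻¹ ^ (if l = 2 * i + 1 then 1 else 0)) := by
      rw [Finset.prod_eq_single (l / 2)]
      · unfold xl
        split_ifs with h1 h2 h3 h4 h5 h6 <;> first | omega | simp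
      · intro i _ hi
        rw [if_neg (by omega), if_neg (by omega)]; simp
      · intro hn; exact absurd (Finset.mem_range.2 (by omega)) hn
    rw [e, ← Finset.prod_mul_distrib]
    refine Finset.prod_congr rfl fun i _ => ?_
    simp only [List.count_cons, beq_iff_eq, pow_add]
    simp only [mul_comm, mul_left_comm, mul_assoc]

theorem zs_wf {m : ℕ} {w : List ℕ} (h : zs m w = true) : ∀ l ∈ w, l < 2 * m := by
  rw [zs, band_eq_true] at h
  exact wfL_spec h.1 List.mem_cons_self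

theorem evW_zs {A : Type*} [CommGroup A] (y : ℕ → A) {m : ℕ} {w : List ℕ} (h : zs m w = true) :
    evW y w = 1 := by
  rw [evW_comm y m w (zs_wf h)]
  rw [zs, band_eq_true, allLt_iff] at h
  refine Finset.prod_eq_one fun i hi => ?_
  rw [Nat.eq_of_beq_eq_true (h.2 i (Finset.mem_range.1 hi)), ← mul_pow, mul_inv_cancel, one_pow]

theorem mem_comm_of_zs {H : Type*} [Group H] (K : Subgroup H) {z : ℕ → H} {m : ℕ} (hz : ∀ i, i < m → z i ∈ K)
    {w : List ℕ} (h : zs m w = true) : evW z w ∈ ⁅K, K⁆ := by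
  classical
  let z' : ℕ → K := fun i => if h : z i ∈ K then ⟨_, h⟩ else 1
  have e : evW z w = K.subtype (evW z' w) := by
    rw [map_evW]
    exact evW_congr (fun i hi => by simp only [z', dif_pos (hz i hi)]; rfl) (zs_wf h)
  have h1 : evW z' w ∈ commutator K := by
    rw [← Abelianization.ker_of, MonoidHom.mem_ker, map_evW]
    exact evW_zs _ h
  rw [e, ← Subgroup.map_subtype_commutator]
  exact Subgroup.mem_map_of_mem _ h1

/-- words with values in `D` -/
def In {H : Type*} [Group H] (D : Subgroup H) (z : ℕ → H) (L : List (List ℕ)) : Prop := ∀ w ∈ L, evW z w ∈ D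

theorem In.sub {H : Type*} [Group H] {D : Subgroup H} {z : ℕ → H} {L : List (List ℕ)} (h : In D z L)
    (c : List ℕ) : evW z (subW L c) ∈ D := by
  rw [evW_subW]
  refine evW_mem fun l _ => ?_
  rcases nthW_mem L (l / 2) with e | e
  · rw [e]; exact D.one_mem
  · exact h _ e

/-- a chain of words with vanishing exponent sums modulo the earlier ones -/
noncomputable def chain (m : ℕ) (S : List (List ℕ × List ℕ)) : List (List ℕ) → Bool :=
  List.rec (motive := fun _ => List (List ℕ) → Bool) (fun _ => true)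
    (fun p _ ih L => band (zs m (p.1 ++ subW L p.2)) (ih (L ++ [p.1]))) S

theorem In.chain {H : Type*} [Group H] {K : Subgroup H} {z : ℕ → H} {m : ℕ} (hz : ∀ i, i < m → z i ∈ K) :
    ∀ (S : List (List ℕ × List ℕ)) {L : List (List ℕ)}, In ⁅K, K⁆ z L → chain m S L = true →
      In ⁅K, K⁆ z (L ++ S.map Prod.fst)
  | [], L, h, _ => by simpa using h
  | p :: S, L, h, e => by
    have e' : band (zs m (p.1 ++ subW L p.2)) (H39.ThM.chain m S (L ++ [p.1])) = true := e
    rw [band_eq_true] at e'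
    have h1 := mem_comm_of_zs K hz e'.1
    rw [evW_append] at h1
    have h2 : evW z p.1 ∈ ⁅K, K⁆ := by
      have := Subgroup.mul_mem _ h1 (Subgroup.inv_mem _ (h.sub p.2))
      rwa [mul_inv_cancel_right] at this
    have := In.chain hz S (L := L ++ [p.1]) (fun w hw => by
      rcases List.mem_append.1 hw with hw | hw
      · exact h w hw
      · rw [List.mem_singleton.1 hw]; exact h2) e'.2
    simpa using this

theorem In.of_rels {H : Type*} [Group H] (D : Subgroup H) {z : ℕ → H} {L : List (List ℕ)} (h : Rels L z) :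
    In D z L := fun w hw => by rw [h w hw]; exact D.one_mem

section
variable {P G Γ : Type} [Group P] [Group G] [Group Γ]

/-- the pull-back -/
def pb (θ : P →* G) (τ : Γ →* G) : Subgroup (P × Γ) :=
  (θ.comp (MonoidHom.fst P Γ)).eqLocus (τ.comp (MonoidHom.snd P Γ))

theorem mem_pb {θ : P →* G} {τ : Γ →* G} {q : P × Γ} : q ∈ pb θ τ ↔ θ q.1 = τ q.2 := Iff.rfl

theorem pb_key (hM : HasCyclicSchurMultiplier P 1) (θ : P →* G) {τ : Γ →* G} (hs : Function.Surjective τ)
    (hc : τ.ker ≤ Subgroup.center Γ) {q : P × Γ} (hq : q ∈ ⁅pb θ τ, pb θ τ⁆) (h1 : q.1 = 1) : q.2 = 1 := by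
  let ξ : pb θ τ →* P := (MonoidHom.fst P Γ).comp (pb θ τ).subtype
  have hξ : Function.Surjective ξ := fun p => by
    obtain ⟨γ, hγ⟩ := hs (θ p)
    exact ⟨⟨(p, γ), hγ.symm⟩, rfl⟩
  have hk : ξ.ker ≤ Subgroup.center _ := fun a ha => Subgroup.mem_center_iff.2 fun b => by
    have a1 : a.1.1 = 1 := ha
    have a2 : a.1.2 ∈ τ.ker := by
      have := a.2
      rw [mem_pb, a1, map_one] at this
      exact this.symm
    refine Subtype.ext (Prod.ext ?_ ?_)
    · show b.1.1 * a.1.1 = a.1.1 * b.1.1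
      rw [a1, mul_one, one_mul]
    · exact Subgroup.mem_center_iff.1 (hc a2) _
  rw [← Subgroup.map_subtype_commutator] at hq
  obtain ⟨a, ha, rfl⟩ := hq
  have : a ∈ ξ.ker ⊓ commutator _ := ⟨h1, ha⟩
  rw [H78.Schur.ker_inf_eq_bot hM ξ hξ hk, Subgroup.mem_bot] at this
  rw [this]; rfl

theorem evW_pair (g : ℕ → P) (y : ℕ → Γ) (w : List ℕ) :
    evW (fun i => (g i, y i)) w = (evW g w, evW y w) :=
  Prod.ext (map_evW (MonoidHom.fst P Γ) _ w) (map_evW (MonoidHom.snd P Γ) _ w)

/-- relators of the lifts -/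
theorem rels_of_chain (hM : HasCyclicSchurMultiplier P 1) (θ : P →* G) {τ : Γ →* G}
    (hs : Function.Surjective τ) (hc : τ.ker ≤ Subgroup.center Γ) {g : ℕ → P} {y : ℕ → Γ} {m : ℕ}
    (hy : ∀ i, i < m → τ (y i) = θ (g i)) {L : List (List ℕ)} (h1 : Rels L g) (h2 : Rels L y)
    {S : List (List ℕ × List ℕ)} (e : chain m S L = true) {L' : List (List ℕ)} (h3 : Rels L' g)
    (e' : subL L' (L ++ S.map Prod.fst) = true) : Rels L' y := by
  have a : In ⁅pb θ τ, pb θ τ⁆ (fun i => (g i, y i)) L := In.of_rels _ fun w hw => by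
    rw [evW_pair, h1 w hw, h2 w hw]; rfl
  have b := a.chain (m := m) (fun i hi => (hy i hi).symm) S e
  intro w hw
  obtain ⟨v, hv, e''⟩ := (anyL_iff _ _).1 ((allL_iff _ _).1 e' w hw)
  have c := b v hv
  rw [← eq_of_eqL _ _ e'', evW_pair] at c
  exact pb_key hM θ hs hc c (h3 w hw)

/-- the perfect case -/
theorem exists_lifts (hM : HasCyclicSchurMultiplier P 1) (θ : P →* G) {τ : Γ →* G}
    (hs : Function.Surjective τ) (hc : τ.ker ≤ Subgroup.center Γ) {g : ℕ → P} {m : ℕ} {L C : List (List ℕ)}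
    (h1 : Rels L g) (hw : wfL m L = true)
    (e : allLt (fun i => zs m (2 * i :: subW L (nthW C i))) m = true) :
    ∃ y : ℕ → Γ, (∀ i, i < m → τ (y i) = θ (g i)) ∧ Rels L y := by
  choose s hs' using hs
  let z : ℕ → P × Γ := fun i => (g i, s (θ (g i)))
  have hz : ∀ i, i < m → z i ∈ pb θ τ := fun i _ => (hs' _).symm
  let y : ℕ → Γ := fun i => evW (fun i => s (θ (g i))) (2 * i :: subW L (nthW C i))
  have a : ∀ i, i < m → (g i, y i) ∈ ⁅pb θ τ, pb θ τ⁆ := fun i hi => by
    have := mem_comm_of_zs _ hz ((allLt_iff _ _).1 e i hi)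
    rw [evW_pair, evW_cons, xl_even, Subgroup.mem_bot.1 ((In.of_rels ⊥ h1).sub _), mul_one] at this
    exact this
  refine ⟨y, fun i hi => (Subgroup.commutator_le_self _ (a i hi) :).symm, fun w hw' => ?_⟩
  have b : evW (fun i => (g i, y i)) w ∈ ⁅pb θ τ, pb θ τ⁆ :=
    evW_mem fun l hl => a _ (by have := wfL_spec hw hw' l hl; omega)
  rw [evW_pair] at b
  exact pb_key hM θ (fun a => ⟨_, hs' a⟩) hc b (h1 w hw')

end

/-- the 2-part of the multiplier from a normal subgroup -/
theorem expB_two_of_sub {G : Type} [Group G] [Finite G] (N : Subgroup G) [N.Normal] (hN : H60.ExpB N 2 0)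
    (u : G) (hodd : (⁅N, N⁆ ⊔ Subgroup.zpowers u).index.Coprime 2) : H60.ExpB G 2 0 := by
  intro Γ _ _ σ hσ
  rw [H60.expMod_zero_iff]
  intro z hz
  obtain ⟨v, hv⟩ := hσ.1 u
  let Γ0 := N.comap σ
  let D : Subgroup Γ := ⁅Γ0, Γ0⁆
  have hK : (D ⊔ Subgroup.zpowers v).map σ = ⁅N, N⁆ ⊔ Subgroup.zpowers u := by
    rw [Subgroup.map_sup, Subgroup.map_commutator, Subgroup.map_comap_eq_self_of_surjective hσ.1,
      MonoidHom.map_zpowers, hv]
  have h1 := H60.pow_index_mem_of_stem hσ (D ⊔ Subgroup.zpowers v) hz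
  rw [hK] at h1
  have hle : D ⊔ Subgroup.zpowers v ≤ (Subgroup.zpowers (QuotientGroup.mk' D v)).comap (QuotientGroup.mk' D) := by
    refine sup_le (fun a ha => ?_) (Subgroup.zpowers_le.2 (Subgroup.mem_zpowers _))
    rw [Subgroup.mem_comap, QuotientGroup.mk'_apply D a, (QuotientGroup.eq_one_iff a).2 ha]
    exact one_mem _
  have h2 : ⁅D ⊔ Subgroup.zpowers v, D ⊔ Subgroup.zpowers v⁆ ≤ D := by
    rw [Subgroup.commutator_le]
    intro a ha b hb
    obtain ⟨i, hi⟩ := hle ha
    obtain ⟨j, hj⟩ := hle hb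
    rw [← QuotientGroup.eq_one_iff, ← QuotientGroup.mk'_apply, map_commutatorElement, ← hi, ← hj]
    exact commutatorElement_eq_one_iff_commute.2 ((Commute.refl _).zpow_zpow i j)
  have h3 := h2 h1
  obtain ⟨A, _, _, hA⟩ := H78.Schur.exists_hasSchurMultiplier N
  have hAo : (Nat.card A).Coprime 2 := by
    obtain ⟨⟨Δ, _, _, ρ, hρ, ⟨e⟩⟩, _⟩ := hA
    rw [← Nat.card_congr e.toEquiv, Nat.coprime_comm, Nat.Prime.coprime_iff_not_dvd Nat.prime_two]
    intro hd
    have : Fact (Nat.Prime 2) := ⟨Nat.prime_two⟩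
    obtain ⟨a, ha⟩ := exists_prime_orderOf_dvd_card' 2 hd
    have hs : Function.Surjective fun b : ρ.ker => b ^ 2 := fun b => by
      obtain ⟨w, hw, e⟩ := (H60.expMod_zero_iff ρ 2).1 (hN Δ ρ hρ) b b.2
      exact ⟨⟨w, hw⟩, Subtype.ext e.symm⟩
    have hi := Finite.injective_iff_surjective.2 hs
    have : a = 1 := hi (by show a ^ 2 = 1 ^ 2; rw [← ha, pow_orderOf_eq_one, one_pow])
    rw [this, orderOf_one] at ha
    omega
  have hd := H78.Schur.card_ker_inf_dvd hA (σ.subgroupComap N)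
    (MonoidHom.subgroupComap_surjective_of_surjective σ N hσ.1) (fun a ha => Subgroup.mem_center_iff.2 fun b =>
      Subtype.ext (Subgroup.mem_center_iff.1 (hσ.2.1 (congrArg Subtype.val ha :)) _))
  have h3' := (Subgroup.map_subtype_commutator Γ0).ge h3
  obtain ⟨a, ha, ea⟩ := h3'
  have ha' : a ∈ (σ.subgroupComap N).ker ⊓ commutator Γ0 := by
    refine ⟨Subtype.ext ?_, ha⟩
    show σ (Γ0.subtype a) = 1
    rw [ea, map_pow, (MonoidHom.mem_ker).1 hz, one_pow]
  have h4 : a ^ Nat.card A = 1 := by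
    obtain ⟨k, hk⟩ := hd
    have := congrArg Subtype.val (pow_card_eq_one' (x := (⟨a, ha'⟩ : ↥((σ.subgroupComap N).ker ⊓ commutator Γ0))))
    rw [hk, pow_mul, show a ^ _ = 1 from this, one_pow]
  have h5 : z ^ ((⁅N, N⁆ ⊔ Subgroup.zpowers u).index * Nat.card A) = 1 := by
    rw [pow_mul, ← ea, ← map_pow, h4, map_one]
  obtain ⟨k, hk⟩ := H60.exists_pow_eq_of_pow_coprime (Nat.Coprime.mul_left hodd hAo) h5
  exact ⟨z ^ k, Subgroup.pow_mem _ hz k, hk⟩

theorem index_dvd_of_sup {G : Type*} [Group G] [Finite G] (H T : Subgroup G) [T.Normal] (h : H ⊔ T = ⊤) :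
    H.index ∣ Nat.card T := by
  have hs : Function.Surjective ((QuotientGroup.mk' T).comp H.subtype) := by
    intro q
    obtain ⟨g, rfl⟩ := QuotientGroup.mk'_surjective T q
    have : g ∈ ((H ⊔ T : Subgroup G) : Set G) := h ▸ Subgroup.mem_top g
    rw [Subgroup.mul_normal] at this
    obtain ⟨a, ha, b, hb, rfl⟩ := this
    refine ⟨⟨a, ha⟩, ?_⟩
    show QuotientGroup.mk' T a = QuotientGroup.mk' T (a * b)
    rw [map_mul, QuotientGroup.mk'_apply T b, (QuotientGroup.eq_one_iff b).2 hb, mul_one]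
  have h1 := Subgroup.card_dvd_of_surjective _ hs
  have h2 := Subgroup.card_eq_card_quotient_mul_card_subgroup T
  have h3 := H.card_mul_index
  have h4 : Nat.card H * H.index ∣ Nat.card H * Nat.card T := by
    rw [h3, h2]; exact Nat.mul_dvd_mul_right h1 _
  exact Nat.dvd_of_mul_dvd_mul_left Nat.card_pos h4

end H39.ThM
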