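import Cfsg.Agent.Lib.ThM.Mul
import Cfsg.Agent.Lib.ThM.Pb

/-! The Schur multiplier of the Thompson group is trivial: a central extension splits over the two
subgroups `2^(1+8).A9` and `(3 × G2(3)):2`, and the two splittings give lifts of the generators that
satisfy all the relators. -/

set_option autoImplicit false
set_option maxRecDepth 100000

namespace H39.ThM

open Cfsg H54 H78.Th Cfsg.Spor

theorem mult3 : HasCyclicSchurMultiplier P3 1 :=
  H60.hasCyclic_of_bounds M3.card (ps := [2, 3]) (by decide +kernel) 1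
    (H60.forall_mem_two (.zero e2_exp) (.zero e3_exp)) H60.lowB_one

theorem r2 {L : List (List ℕ)} (e : relsAt c2 p2T.get 5 0x2bbb02bcaf400 7 L = true) : Rels L g2 :=
  M2.rels_of e M2.rels

theorem t_normal : (Subgroup.zpowers (g2 5)).Normal := by
  have h := r2 (L := (List.range 7).map fun i => [2 * i, 10, 2 * i + 1, if i = 6 then 10 else 11])
    (by decide +kernel)
  rw [← Subgroup.normalizer_eq_top_iff, eq_top_iff, ← M2.gen_top]
  refine gen_le fun i hi => Subgroup.mem_normalizer_fintype ?_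
  have h1 := h _ (List.mem_map_of_mem (List.mem_range.2 hi))
  have h2 : g2 i * g2 5 * (g2 i)⁻¹ ∈ Subgroup.zpowers (g2 5) := by
    rw [evW_cons, evW_cons, evW_cons, evW_cons, evW_nil, xl_even, xl_odd, mul_one,
      show xl g2 10 = g2 5 from xl_even g2 5, ← mul_assoc, ← mul_assoc, mul_eq_one_iff_eq_inv] at h1
    rw [h1]
    split_ifs
    · exact inv_mem (xl_even g2 5 ▸ Subgroup.mem_zpowers _)
    · exact inv_mem (xl_odd g2 5 ▸ inv_mem (Subgroup.mem_zpowers _))
  rintro _ ⟨k, rfl⟩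
  show g2 i * g2 5 ^ k * (g2 i)⁻¹ ∈ _
  rw [← conj_zpow]
  exact Subgroup.zpow_mem _ h2 k

def LN : List (List ℕ) :=
  [[0, 6, 4, 6, 4, 6, 4, 6, 4], [4, 4], [6, 6], [8, 8], [6, 8, 6, 8, 6, 8], [0, 2, 0, 3, 1, 3], [2, 4, 2, 4, 2, 4]]
def SN : List (List ℕ × List ℕ) :=
  [([0], [1, 2, 2, 4, 4]), ([2], [10, 15]), ([4], [13, 16, 16, 16, 2]), ([6, 8], [9, 4, 6]),
    ([2, 4, 0, 2], [17, 17, 19, 15]), ([2, 0, 4, 2], [17, 17, 19, 15])]

theorem g2_mem_comm {i : ℕ} (hi : i < 5) : g2 i ∈ ⁅N2, N2⁆ := by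
  have h := (In.of_rels ⁅N2, N2⁆ (r2 (L := LN) (by decide +kernel))).chain (m := 6) (fun i => g2_mem) SN
    (by decide +kernel)
  have one : ∀ j, [2 * j] ∈ LN ++ SN.map Prod.fst → g2 j ∈ ⁅N2, N2⁆ := fun j hj => by
    have := h _ hj
    rwa [evW_cons, evW_nil, mul_one, xl_even] at this
  have he : g2 4 ∈ ⁅N2, N2⁆ := by
    have r := M2.rels ([13] ++ [2, 4, 0, 2] ++ [12] ++ [2, 0, 4, 2] ++ [8]) (by decide)
    have a := h [2, 4, 0, 2] (by decide)
    have b := h [2, 0, 4, 2] (by decide)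
    rw [evW_append, evW_append, evW_append, evW_append, mul_eq_one_iff_inv_eq] at r
    have c : evW g2 [13] = (evW g2 [12])⁻¹ := by
      rw [evW_cons, evW_cons, evW_nil, mul_one, mul_one]
      exact (xl_odd g2 6).trans (congrArg _ (xl_even g2 6).symm)
    have d : evW g2 [8] = g2 4 := by rw [evW_cons, evW_nil, mul_one]; exact xl_even g2 4
    rw [← d, ← r, c]
    exact inv_mem (mul_mem (Subgroup.Normal.conj_mem' inferInstance _ a _) b)
  have hd : g2 3 ∈ ⁅N2, N2⁆ := by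
    have a := h [6, 8] (by decide)
    rw [evW_cons, evW_cons, evW_nil, mul_one, show xl g2 6 = g2 3 from xl_even g2 3,
      show xl g2 8 = g2 4 from xl_even g2 4] at a
    simpa using mul_mem a (inv_mem he)
  interval_cases i
  · exact one 0 (by decide)
  · exact one 1 (by decide)
  · exact one 2 (by decide)
  · exact hd
  · exact he

theorem d2_exp' : H60.ExpB P2 2 0 := by
  refine expB_two_of_sub N2 d2_exp (g2 6) ?_
  have := t_normal
  have h1 := index_dvd_of_sup (⁅N2, N2⁆ ⊔ Subgroup.zpowers (g2 6)) (Subgroup.zpowers (g2 5)) (by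
    rw [eq_top_iff, ← M2.gen_top]
    refine gen_le fun i hi => ?_
    by_cases h5 : i < 5
    · exact Subgroup.mem_sup_left (Subgroup.mem_sup_left (g2_mem_comm h5))
    · interval_cases i
      · exact Subgroup.mem_sup_right (Subgroup.mem_zpowers _)
      · exact Subgroup.mem_sup_left (Subgroup.mem_sup_right (Subgroup.mem_zpowers _)))
  have h2 : orderOf (g2 5) ∣ 3 := by
    have r := M2.rels [10, 10, 10] (by decide)
    rw [evW_cons, evW_cons, evW_cons, evW_nil, mul_one, show xl g2 10 = g2 5 from xl_even g2 5] at r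
    exact orderOf_dvd_of_pow_eq_one (by rw [pow_three]; exact r)
  rw [Nat.card_zpowers] at h1
  exact Nat.Coprime.coprime_dvd_left (h1.trans h2) (by norm_num)

theorem mult2 : HasCyclicSchurMultiplier P2 1 :=
  H60.hasCyclic_of_bounds M2.card (ps := [2, 3]) (by decide +kernel) 1
    (H60.forall_mem_two (.zero d2_exp') (.zero d3_exp)) H60.lowB_one

def C3 : List (List ℕ) :=
  [[11, 2, 2, 4, 4],
   [3, 3, 4, 4, 4, 4, 7, 7, 7, 7, 7, 7, 7, 7, 7, 7, 7, 10, 15, 15, 15, 15, 24, 24, 24, 24, 24, 24, 24, 24, 24, 24,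
    24, 24, 36, 36, 36, 36, 36, 36, 39, 39, 39, 45, 53, 53, 54, 54, 54, 54],
   [4, 7, 7, 7, 15, 24, 24, 24], [6, 25], [36], [27, 48], [7, 37, 37, 37, 38, 44, 52, 55, 55], [6, 45]]

def KN3 : List (List ℕ) :=
  [[0, 4, 2, 4, 2, 4, 2, 4, 2], [2, 2], [4, 4], [6, 6], [4, 6, 4, 6, 4, 6], [12, 12, 2, 0],
    [12, 4, 12, 4, 12, 4, 12, 4, 12, 4, 12, 4]]
def KN2 : List (List ℕ) :=
  [[0, 6, 4, 6, 4, 6, 4, 6, 4], [4, 4], [6, 6], [8, 8], [6, 8, 6, 8, 6, 8], [12, 12, 4, 0],
    [12, 6, 12, 6, 12, 6, 12, 6, 12, 6, 12, 6], [0, 2, 0, 3, 1, 3]]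
def S2 : List (List ℕ × List ℕ) :=
  [([0], [1, 2, 2, 4, 4]), ([2], [14, 17]), ([12, 12], [13, 4, 4, 4, 10, 10, 3, 17, 17]), ([4], [11, 20, 16]),
   ([6, 8], [9, 4, 6]),
   ([2, 2], [19, 19]), ([0, 2, 0, 2, 0, 2], [17, 17, 17, 19, 19, 19]), ([2, 4, 2, 4, 2, 4], [19, 19, 19, 23, 23, 23]),
   ([2, 6, 2, 6], [19, 19, 5]), ([2, 8, 2, 8], [19, 19, 25, 25, 4]),
   ([2, 4, 6, 8, 2, 4, 6, 8, 2, 4, 6, 8, 2, 4, 6, 8, 2, 4, 6, 8, 2, 4, 6, 8, 2, 4, 6, 8, 2, 4, 6, 8],
    [19, 19, 19, 19, 19, 19, 19, 19, 23, 23, 23, 23, 23, 23, 23, 23, 25, 25, 25, 25, 25, 25, 25, 25]),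
   ([11, 2, 10, 2], [19, 19]),
   ([6, 13, 6, 2, 4, 0, 2, 6, 12, 6, 2, 0, 4, 2, 4, 8, 6, 13, 6, 2, 4, 0, 2, 8, 13],
    [17, 17, 17, 19, 19, 19, 19, 19, 19, 23, 23, 23, 23, 25, 25, 5, 5, 20])]
/-- the relators of `P2` that contain `b`, but for one -/
def RB2 : List (List ℕ) := (S2.map Prod.fst).drop 5

section
variable {Γ : Type} [Group Γ] {τ : Γ →* Th}

theorem one_letter {G : Type*} [Group G] (y : ℕ → G) (i : ℕ) : evW y [2 * i] = y i := by
  rw [evW_cons, evW_nil, mul_one, xl_even]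

theorem lift_words {y : ℕ → Γ} (hy : ∀ i, i < 8 → τ (y i) = x i) {w : List ℕ} (hw : ∀ l ∈ w, l < 2 * 8) :
    τ (evW y w) = evW x w := by
  rw [map_evW, evW_congr hy hw]

/-- lifts that satisfy the relators of `K3` and make `b` a conjugate of `a` -/
theorem exists_y (hs : Function.Surjective τ) (hc : τ.ker ≤ Subgroup.center Γ) :
    ∃ y : ℕ → Γ, (∀ i, i < 8 → τ (y i) = x i) ∧ Rels R3 (fun i => evW y (nthW E3 i)) ∧
      Rels [[0, 2, 0, 3, 1, 3]] y := by
  obtain ⟨y3, hy3, h3⟩ := exists_lifts mult3 θ3 hs hc M3.rels (m := 8) (C := C3) (by decide +kernel)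
    (by decide +kernel)
  obtain ⟨b0, hb0⟩ := hs (x 1)
  have ha : τ (y3 0) = x 0 := by rw [hy3 0 (by norm_num), θ3_k 0 (by norm_num), k3_zero]
  let b := y3 0 * b0 * y3 0 * (y3 0 * b0)⁻¹
  have hb : τ b = x 1 := by
    have r := M1.rels_of (R' := [[0, 2, 0, 3, 1, 3]]) (by decide +kernel) (rels1 pres.rels) _ List.mem_cons_self
    simp only [evW_cons, evW_nil, mul_one, xl, Nat.reduceMod, Nat.reduceDiv, ↓reduceIte, one_ne_zero] at r
    simp only [b, map_mul, map_inv, ha, hb0]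
    calc _ = x 0 * (x 1 * (x 0 * ((x 1)⁻¹ * ((x 0)⁻¹ * (x 1)⁻¹)))) * x 1 := by group
      _ = _ := by rw [r, one_mul]
  let y : ℕ → Γ := fun i => if i = 0 then y3 0 else if i = 1 then b else y3 (i - 1)
  have hy : ∀ i, i < 8 → τ (y i) = x i := fun i hi => by
    have k : ∀ j, j < 8 → ∀ i, nthW E3 j = [2 * i] → τ (y3 j) = x i := fun j hj i e => by
      rw [hy3 j hj, θ3_g j hj, e, one_letter]
    interval_cases i
    exacts [ha, hb, k 1 (by norm_num) 2 rfl, k 2 (by norm_num) 3 rfl, k 3 (by norm_num) 4 rfl,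
      k 4 (by norm_num) 5 rfl, k 5 (by norm_num) 6 rfl, k 6 (by norm_num) 7 rfl]
  have hz : y3 7 = 1 := by
    have h2 : ∀ i, i < 7 → τ (evW y (nthW E2 i)) = θ2 (g2 i) := fun i hi => by
      rw [θ2_g i hi, lift_words hy]
      interval_cases i <;> decide
    have r := rels_of_chain mult2 θ2 hs hc h2 (L := []) (fun _ h => absurd h List.not_mem_nil)
      (fun _ h => absurd h List.not_mem_nil) (S := [([13, 8, 12, 9], [])]) (by decide +kernel)
      (r2 (L := [[13, 8, 12, 9]]) (by decide +kernel)) (by decide +kernel) _ List.mem_cons_self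
    have r1 := h3 [13, 6, 12, 6, 14] (by decide)
    have r2 := h3 [6, 6] (by decide)
    have e4 : evW y (nthW E2 4) = y3 3 := one_letter y 4
    have e6 : evW y (nthW E2 6) = y3 6 := one_letter y 7
    simp only [evW_cons, evW_nil, mul_one, xl, Nat.reduceMod, Nat.reduceDiv, ↓reduceIte, one_ne_zero,
      e4, e6] at r r1 r2
    have a : (y3 6)⁻¹ * y3 3 * y3 6 = y3 3 :=
      calc _ = (y3 6)⁻¹ * (y3 3 * (y3 6 * (y3 3)⁻¹)) * y3 3 := by group
        _ = _ := by rw [r, one_mul]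
    have a' : (y3 6)⁻¹ * y3 3 * y3 6 * y3 3 * y3 7 = 1 := by rw [← r1]; group
    rwa [a, r2, one_mul] at a'
  refine ⟨y, hy, fun w hw => ?_, fun w hw => ?_⟩
  · rw [← h3 w hw]
    refine evW_congr (m := 8) (fun i hi => ?_) (wfL_spec (E := R3) (by decide +kernel) hw)
    interval_cases i
    exacts [one_letter y 0, one_letter y 2, one_letter y 3, one_letter y 4, one_letter y 5, one_letter y 6,
      one_letter y 7, hz.symm]
  · rw [List.mem_singleton.1 hw]
    have hz0 : b0⁻¹ * b ∈ Subgroup.center Γ := hc (by rw [MonoidHom.mem_ker, map_mul, map_inv, hb, hb0, inv_mul_cancel])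
    have hz1 := Subgroup.mem_center_iff.1 hz0 (y3 0)
    show xl y 0 * (xl y 2 * (xl y 0 * (xl y 3 * (xl y 1 * (xl y 3 * 1))))) = 1
    show y3 0 * (b * (y3 0 * (b⁻¹ * ((y3 0)⁻¹ * (b⁻¹ * 1))))) = 1
    calc _ = y3 0 * b0 * (b0⁻¹ * b * y3 0) * (b0⁻¹ * b)⁻¹ * (y3 0 * b0)⁻¹ * b⁻¹ := by group
      _ = y3 0 * b0 * y3 0 * (y3 0 * b0)⁻¹ * b⁻¹ := by rw [← hz1]; group
      _ = 1 := mul_inv_cancel b

theorem eq_one_of_conj {G : Type*} [Group G] {s b : G} (hz : s⁻¹ * (b * (s * b)) ∈ Subgroup.center G)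
    (hb : b * b = 1) (hs : s ^ 7 = 1) : s⁻¹ * (b * (s * b)) = 1 := by
  generalize e : s⁻¹ * (b * (s * b)) = z at hz
  have c := Subgroup.mem_center_iff.1 hz
  have e1 : s⁻¹ * b * s = z * b := by
    rw [← e]
    calc _ = s⁻¹ * b * s * (b * b) := by rw [hb, mul_one]
      _ = _ := by group
  have e2 : z ^ 2 = 1 :=
    calc z ^ 2 = z * (z * b) * b * (b * b)⁻¹ := by rw [pow_two]; group
      _ = z * (b * z) * b := by rw [hb, c b]; group
      _ = (z * b) * (z * b) := by group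
      _ = s⁻¹ * (b * b) * s := by rw [← e1]; group
      _ = 1 := by rw [hb]; group
  have e3 : ∀ k : ℕ, (s ^ k)⁻¹ * b * s ^ k = z ^ k * b := fun k => by
    induction k with
    | zero => simp
    | succ k ih =>
      have c' := Subgroup.mem_center_iff.1 (Subgroup.pow_mem _ hz k) s⁻¹
      calc _ = s⁻¹ * ((s ^ k)⁻¹ * b * s ^ k) * s := by rw [pow_succ]; group
        _ = s⁻¹ * z ^ k * b * s := by rw [ih]; group
        _ = z ^ k * (s⁻¹ * b * s) := by rw [c']; group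
        _ = _ := by rw [e1, pow_succ]; group
  have e4 := e3 7
  rw [hs, inv_one, one_mul, mul_one, eq_comm, mul_eq_right] at e4
  calc z = z ^ 7 * ((z ^ 2) ^ 3)⁻¹ := by group
    _ = 1 := by rw [e2, e4]; group

def W1 : List ℕ := [6, 2, 4, 6, 2, 4, 0, 2]
def W2 : List ℕ := [10, 6, 4, 6, 8, 11, 11, 8, 0, 2, 4, 0, 2]
def W3 : List ℕ := [8, 12, 8, 8, 6, 4]
def W4 : List ℕ := [2, 4, 0, 2]
def YW : List ℕ := [2, 4, 2, 4, 6, 4, 2, 4, 6, 9, 6, 4, 2, 4, 6, 8]

theorem eq_of_rel {G : Type*} [Group G] {y : ℕ → G} {v w : List ℕ} (h : evW y (v ++ invA w []) = 1) :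
    evW y v = evW y w := by
  rwa [evW_append, evW_invA, evW_nil, mul_one, mul_inv_eq_one] at h

theorem evW_conj {G : Type*} [Group G] (y : ℕ → G) (v w : List ℕ) :
    evW y (v ++ w ++ invA v []) = evW y v * evW y w * (evW y v)⁻¹ := by
  rw [evW_append, evW_append, evW_invA, evW_nil, mul_one]

theorem all_rels (hs : Function.Surjective τ) (hc : τ.ker ≤ Subgroup.center Γ) :
    ∃ y : ℕ → Γ, (∀ i, i < 8 → τ (y i) = x i) ∧ Rels R y := by
  obtain ⟨y, hy, h3, hb⟩ := exists_y hs hc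
  have k3y : ∀ {L : List (List ℕ)}, relsZ L = true → Rels (L.map (subW E3)) y := fun e =>
    (rels_z h3 rfl e).subW'
  have h2 : ∀ i, i < 7 → τ (evW y (nthW E2 i)) = θ2 (g2 i) := fun i hi => by
    rw [θ2_g i hi, lift_words hy]
    interval_cases i <;> decide
  have hK2 : Rels KN2 (fun i => evW y (nthW E2 i)) :=
    Rels.subW (((k3y (L := KN3) (by decide +kernel)).append hb).of_subL (by decide +kernel))
  have hRB : Rels (RB2.map (subW E2)) y :=
    (rels_of_chain mult2 θ2 hs hc h2 (r2 (by decide +kernel)) hK2 (S := S2) (by decide +kernel)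
      (r2 (L := RB2) (by decide +kernel)) (by decide +kernel)).subW'
  have h3' : Rels (R3.map (subW E3)) y := h3.subW'
  have h23 := h3'.append hRB
  have hsb : Rels [[11, 2, 10, 2]] y := by
    intro w hw
    rw [List.mem_singleton.1 hw]
    have a : evW y [11, 2, 10, 2] ∈ Subgroup.center Γ := hc (by
      rw [MonoidHom.mem_ker, lift_words hy (by decide)]; exact pres.rels _ (by decide))
    have b := h23.of_subL (R' := [[2, 2], [10, 10, 10, 10, 10, 10, 10]]) (by decide +kernel)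
    have b1 := b [2, 2] (by decide)
    have b2 := b [10, 10, 10, 10, 10, 10, 10] (by decide)
    simp only [evW_cons, evW_nil, mul_one, xl, Nat.reduceMod, Nat.reduceDiv, ↓reduceIte, one_ne_zero] at a b1 b2 ⊢
    exact eq_one_of_conj a b1 (by rw [← b2]; simp only [pow_succ', pow_zero, mul_one])
  have h1 : Rels R1 y := (h23.append hsb).of_subL (by decide +kernel)
  have can : ∀ g : Γ, τ g * x 0 = x 0 * τ g → g * y 0 = y 0 * g := fun g hg => by
    have a : K3 ≤ (Subgroup.centralizer {y 0}).map τ := by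
      rw [K3_gen]
      refine gen_le fun i hi => ⟨evW y (nthW E3 i), Subgroup.mem_centralizer_singleton_iff.2 ?_, ?_⟩
      · have := rels_z h3 rfl cenR_ok _ (List.mem_map_of_mem (List.mem_range.2 hi))
        rw [evW_cons, evW_cons, evW_cons, evW_cons, evW_nil, xl_even, xl_odd, mul_one,
          show xl (fun i => evW y (nthW E3 i)) 0 = y 0 from (xl_even _ 0).trans (one_letter y 0),
          show xl (fun i => evW y (nthW E3 i)) 1 = (y 0)⁻¹ from
            (xl_odd _ 0).trans (congrArg _ (one_letter y 0))] at this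
        calc _ = evW y (nthW E3 i) * (y 0 * ((evW y (nthW E3 i))⁻¹ * (y 0)⁻¹)) * (y 0 * evW y (nthW E3 i)) := by
              group
          _ = _ := by rw [this, one_mul]
      · rw [lift_words hy]; rfl
        interval_cases i <;> decide
    obtain ⟨k, hk, e⟩ := a (mem_K3_iff.2 hg)
    have hz : k⁻¹ * g ∈ Subgroup.center Γ := hc (by rw [MonoidHom.mem_ker, map_mul, map_inv, e, inv_mul_cancel])
    have c1 := Subgroup.mem_center_iff.1 hz (y 0)
    have c2 := Subgroup.mem_centralizer_singleton_iff.1 hk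
    calc g * y 0 = k * (k⁻¹ * g * y 0) := by group
      _ = k * y 0 * (k⁻¹ * g) := by rw [← c1]; group
      _ = _ := by rw [c2]; group
  have uniq : ∀ g h : Γ, τ (g * y 0 * g⁻¹) = τ (h * y 0 * h⁻¹) → g * y 0 * g⁻¹ = h * y 0 * h⁻¹ := fun g h e => by
    have := can (h⁻¹ * g) (by
      simp only [map_mul, map_inv, hy 0 (by norm_num)] at e ⊢
      calc _ = (τ h)⁻¹ * (τ g * x 0 * (τ g)⁻¹) * τ g := by group
        _ = _ := by rw [e]; group)
    calc _ = h * (h⁻¹ * g * y 0) * g⁻¹ := by group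
      _ = _ := by rw [this]; group
  have p1 := M1.rels_of (R' := [[2, 4, 0, 2] ++ invA (W1 ++ [0] ++ invA W1 []) [],
    invA [2, 0, 4, 2, 8] [] ++ invA (W2 ++ subW E3 YW ++ invA W2 []) [], [4] ++ invA (W4 ++ [0] ++ invA W4 []) []])
    (by decide +kernel) h1
  have q1 := eq_of_rel (p1 _ List.mem_cons_self)
  have q2 := eq_of_rel (p1 _ (List.mem_cons_of_mem _ List.mem_cons_self))
  have q4 := eq_of_rel (p1 _ (List.mem_cons_of_mem _ (List.mem_cons_of_mem _ List.mem_cons_self)))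
  have q3 := eq_of_rel (rels_z h3 rfl (R' := [YW ++ invA (W3 ++ [2] ++ invA W3 []) []]) (by decide +kernel) _
    List.mem_cons_self)
  rw [evW_conj, one_letter y 0] at q1 q4
  rw [evW_conj, one_letter _ 1, ← evW_subW, ← evW_subW] at q3
  rw [evW_conj, evW_invA, evW_nil, mul_one, q3, show evW y (nthW E3 1) = evW y [4] from rfl, q4] at q2
  have hr : Rels [[15, 2, 4, 0, 2, 14, 2, 0, 4, 2, 8]] y := by
    intro w hw
    rw [List.mem_singleton.1 hw]
    have sp : ∀ {G : Type} [Group G] (v : ℕ → G), evW v [15, 2, 4, 0, 2, 14, 2, 0, 4, 2, 8] =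
        (v 7)⁻¹ * evW v [2, 4, 0, 2] * v 7 * evW v [2, 0, 4, 2, 8] := fun v => by
      rw [show [15, 2, 4, 0, 2, 14, 2, 0, 4, 2, 8] = 15 :: ([2, 4, 0, 2] ++ (14 :: [2, 0, 4, 2, 8])) from rfl,
        evW_cons, evW_append, evW_cons v 14, xl_odd v 7, xl_even v 7]
      group
    have a1 : (y 7)⁻¹ * evW y [2, 4, 0, 2] * y 7 =
        ((y 7)⁻¹ * evW y W1) * y 0 * ((y 7)⁻¹ * evW y W1)⁻¹ := by rw [q1]; group
    have a2 : (evW y [2, 0, 4, 2, 8])⁻¹ = (evW y W2 * evW y (subW E3 W3) * evW y W4) * y 0 *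
        (evW y W2 * evW y (subW E3 W3) * evW y W4)⁻¹ := by rw [q2]; group
    rw [sp, mul_eq_one_iff_eq_inv, a1, a2]
    refine uniq _ _ ?_
    rw [← a1, ← a2, ← mul_inv_eq_one, ← map_inv, ← map_mul, inv_inv, ← sp, lift_words hy (by decide)]
    exact pres.rels _ (by decide)
  exact ⟨y, hy, ((h23.append hsb).append hr).of_subL (by decide +kernel)⟩

end

theorem mult_Th : HasCyclicSchurMultiplier Th 1 := by
  have : Finite Th := Nat.finite_of_card_ne_zero (by rw [card_Th]; norm_num)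
  rw [H78.Schur.hasCyclic_one_iff]
  intro Γ _ _ τ hτ
  obtain ⟨y, hy, hr⟩ := all_rels hτ.1 hτ.2.1
  obtain ⟨s, hs⟩ := pres.hom Γ y hr
  have e : ∀ g, τ (s g) = g := fun g => by
    have : gen x 8 ≤ (τ.comp s).eqLocus (MonoidHom.id Th) :=
      gen_le fun i hi => show τ (s (x i)) = x i by rw [hs i hi, hy i hi]
    exact this (pres.top ▸ Subgroup.mem_top g)
  rw [eq_bot_iff]
  intro z hz
  have h1 := hτ.2.2 hz
  rw [H78.Schur.commutator_eq_map τ hτ.2.1 s fun g => ⟨g, e g⟩] at h1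
  obtain ⟨g, _, rfl⟩ := h1
  have : g = 1 := by rw [← e g]; exact hz
  rw [this, map_one]; exact Subgroup.one_mem _

end H39.ThM
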