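import Cfsg.Agent.Lib.Schur.Word
import Cfsg.Agent.Lib.Schur.Asm
import Cfsg.Agent.Lib.Th.Cent

/-! Words in the models `P2`, `P3` of the Thompson group; the subgroup of index two of `P2`. -/

set_option autoImplicit false
set_option maxRecDepth 100000

namespace H39.ThM

open Cfsg H54 H60 H78.Th

theorem real_of_words_sub {G Ω : Type*} [Group G] [MulAction G Ω] [Finite G] {lt : ℕ → G} {pt : ℕ → Ω}
    {ap : ℕ → ℕ → ℕ} {nc N : ℕ} {bs : List ℕ} (W : Wd lt pt ap nc N bs) (H : Subgroup G) {d : Pc} {e : Lp}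
    {S : ℕ} (hf : fmtOk d e S = true) {gs hs : Tr} (h1 : rulesOk (actW ap gs) bs d 0 (d.n + 1) = true)
    (h2 : allFrom (fusOne (actW ap gs) (actW ap hs) bs d) 0 d.nf = true) {l : Lvs}
    (h3 : lowW ap nc N gs hs d l = true) (hg : ∀ i, i < d.n + 1 → pw lt (gs.get i) ∈ H)
    (hh : ∀ i, i < d.nf → pw lt (hs.get i) ∈ H) : d.Real H := by
  classical
  simp only [lowW, band_eq_true, Nat.beq_eq, allL_iff, allLt_iff, Nat.ble_eq] at h3
  obtain ⟨a0, a1, a2, a3, a4, a5⟩ := h3
  refine real_of_acts (G := H) (V := (· < N)) (pt := pt)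
    (g := fun i => if h : pw lt (gs.get i) ∈ H then ⟨_, h⟩ else 1)
    (h := fun i => if h : pw lt (hs.get i) ∈ H then ⟨_, h⟩ else 1)
    (MonoidHom.id H) (fmtOk_spec hf).1 (fun i hi x hx => ?_) ?_ (fun i hi x hx => ?_) W.inj
    (fun x hx y _ => by rw [show x = 1 from hx, one_smul]) W.lt
    (fun x hx => Subtype.ext (W.base x hx)) h1 (fusOk_of_from h2) a3 a4 a5
  · have := W.word (a1 i (by omega)) x hx
    refine ⟨this.1, ?_⟩
    simp only [dif_pos (hg i (by omega))]
    exact this.2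
  · simp only [dif_pos (hg 0 (by omega))]
    exact Subtype.ext (by simp only [a0]; rfl)
  · have := W.word (a2 i hi) x hx
    refine ⟨this.1, ?_⟩
    simp only [dif_pos (hh i hi)]
    exact this.2

noncomputable def ap2 : ℕ → ℕ → ℕ := ap1 c2 p2T.get
noncomputable def ap3 : ℕ → ℕ → ℕ := ap1 c3 p3T.get

theorem wd2 : Wd l2 (finPt 705) ap2 27 705 [0, 701, 700, 704, 699] :=
  wd_of_pool M2.ctx M2.pool.rep M2.base _ (by decide +kernel)

theorem wd3 : Wd l3 (finPt 528) ap3 31 528 [0, 527, 522, 525, 524, 523] :=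
  wd_of_pool M3.ctx M3.pool.rep M3.base _ (by decide +kernel)

/-- the sign of the generators -/
def sg (i : ℕ) : ℤˣ := if i = 6 then -1 else 1

theorem sg_rels : H54.Rels R2 sg := by unfold H54.Rels; decide +kernel

noncomputable def sgn : P2 →* ℤˣ := (M2.hom sg_rels).choose

theorem sgn_g (i : ℕ) (h : i < 7) : sgn (g2 i) = sg i := (M2.hom sg_rels).choose_spec i h

/-- the subgroup `3 × G2(3)` -/
noncomputable def N2 : Subgroup P2 := sgn.ker

instance : N2.Normal := inferInstanceAs sgn.ker.Normal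

theorem card_N2 : Nat.card N2 = 12737088 := by
  have hs : sgn.range = ⊤ := by
    rw [eq_top_iff]
    intro a _
    rcases Int.units_eq_one_or a with rfl | rfl
    · exact one_mem _
    · exact ⟨g2 6, sgn_g 6 (by norm_num)⟩
  have h1 : N2.index = 2 := by
    rw [N2, Subgroup.index_ker, hs, Subgroup.card_top, Nat.card_eq_fintype_card, Fintype.card_units_int]
  have h2 := N2.card_mul_index
  rw [h1, M2.card] at h2
  omega

noncomputable def inN (t : Tr) (i : ℕ) : Bool :=
  band (wfL 7 [plist (t.get i)]) (decide (evW sg (plist (t.get i)) = 1))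

theorem mem_N2 {t : Tr} {k : ℕ} (h : allLt (inN t) k = true) : ∀ i, i < k → pw l2 (t.get i) ∈ N2 := by
  intro i hi
  have := (allLt_iff _ _).1 h i hi
  rw [inN, band_eq_true] at this
  have hw := wfL_spec this.1 List.mem_cons_self
  rw [N2, MonoidHom.mem_ker, pw_eq_evW M2.pool.eq hw, map_evW, evW_congr sgn_g hw]
  exact of_decide_eq_true this.2

theorem g2_mem {i : ℕ} (h : i < 6) : g2 i ∈ N2 := by
  rw [N2, MonoidHom.mem_ker, sgn_g i (by omega), sg, if_neg (by omega)]

end H39.ThM
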